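import Cfsg.Agent.H336.LinFour.Basic
import Cfsg.Agent.Co2Type.Quad
import Cfsg.Agent.LargeExtra.Dickson
import Cfsg.Agent.H462.LinFour.Count

/-!
# `Sit` in groups with a large extraspecial subgroup (S1918) (helper462)

`large_card` : `Sit th O K0` in `K` and `Large Q (th a)`, `a ≠ 0`; then `|Q| ≤ 2 ^ 7`.
-/

set_option autoImplicit false

namespace Cfsg.Agent.H462.LinFour

open Subgroup Cfsg.Agent.H336.LinFour Cfsg.Agent.Co2Type.Quad

section

variable {K : Type*} [Group K] {th : V → K} {O K0 Q : Subgroup K}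

theorem mem_cen (h : Sit th O K0) (v : V) : th v ∈ centralizer ({th a0} : Set K) :=
  mem_centralizer_singleton_iff.2 (h.comm v a0)

/-- `A` acting on `Q / ⟨z⟩` -/
noncomputable def T (h : Sit th O K0) (L : Large Q (th a0)) (v : V) : L.V →ₗ[ZMod 2] L.V :=
  (L.act ⟨th v, mem_cen h v⟩).toLinearMap

theorem T_apply (h : Sit th O K0) (L : Large Q (th a0)) (v : V) (w : L.V) :
    T h L v w = L.act ⟨th v, mem_cen h v⟩ w := rfl

theorem T_add (h : Sit th O K0) (L : Large Q (th a0)) (u v : V) (w : L.V) :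
    T h L (u + v) w = T h L u (T h L v w) := by
  have : (⟨th (u + v), mem_cen h (u + v)⟩ : centralizer ({th a0} : Set K)) =
      ⟨th u, mem_cen h u⟩ * ⟨th v, mem_cen h v⟩ := Subtype.ext (h.add u v)
  rw [T_apply, this, map_mul]
  rfl

theorem T_zero (h : Sit th O K0) (L : Large Q (th a0)) (w : L.V) : T h L 0 w = w := by
  have : (⟨th 0, mem_cen h 0⟩ : centralizer ({th a0} : Set K)) = 1 := Subtype.ext h.zero
  rw [T_apply, this, map_one]
  rfl

theorem T_a (h : Sit th O K0) (L : Large Q (th a0)) (w : L.V) : T h L a0 w = w := by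
  rw [T_apply, L.act_mem _ (show th a0 ∈ Q from L.z_mem)]
  rfl

theorem T_pr (h : Sit th O K0) (L : Large Q (th a0)) (v : V) (x : Q) :
    T h L v (L.pr x) = L.pr x ↔ (x : K) * th v * (x : K)⁻¹ = th v ∨ (x : K) * th v * (x : K)⁻¹ = th (v + a0) := by
  rw [T_apply, L.act_pr, L.pr_eq_pr, L.conjQ_coe]
  have hx : (x : K) * th a0 = th a0 * x := L.comm_z x x.2
  constructor
  · rintro (h1 | h1)
    · left
      have h1' : th v * (x : K) * (th v)⁻¹ = x := h1
      rw [mul_inv_eq_iff_eq_mul] at h1' ⊢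
      exact h1'.symm
    · right
      have h1' : th v * (x : K) * (th v)⁻¹ = x * th a0 := h1
      rw [mul_inv_eq_iff_eq_mul] at h1' ⊢
      rw [h.add, mul_assoc, ← hx, ← mul_assoc, h1', mul_assoc, mul_assoc, h.comm v a0, ← mul_assoc (th a0),
        h.sq, one_mul]
  · rintro (h1 | h1)
    · left
      change th v * (x : K) * (th v)⁻¹ = x
      rw [mul_inv_eq_iff_eq_mul] at h1 ⊢
      exact h1.symm
    · right
      change th v * (x : K) * (th v)⁻¹ = x * th a0
      rw [mul_inv_eq_iff_eq_mul] at h1 ⊢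
      rw [mul_assoc (x : K), h.comm a0 v, ← mul_assoc, h1, h.add]
      rw [mul_assoc, mul_assoc, hx, ← mul_assoc (th a0), h.sq, one_mul]

/-- elements of `Q` centralising `A` are in `A` -/
theorem mem_of_comm (h : Sit th O K0) (L : Large Q (th a0)) {x : K} (hx : x ∈ Q) (hc : ∀ v, x * th v = th v * x) :
    ∃ v, th v = x := by
  refine h.mem_of_sq hc (n := 2) ?_
  have h1 : x ^ (2 ^ 2) = (x * x) * (x * x) := by
    rw [show (2 : ℕ) ^ 2 = 2 * 2 from rfl, pow_mul, pow_two, pow_two]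
  rw [h1]
  rcases L.sq x hx with h2 | h2 <;> rw [h2]
  · rw [one_mul]
  · exact h.sq a0

/-- `x` acts on `A` as the transvection `v ↦ v + (d, v) a0` -/
def Tr (th : V → K) (x : K) (d : V) : Prop := ∀ v, x * th v * x⁻¹ = th (v + dt d v • a0)

/-- the same on `Q / ⟨z⟩` -/
def R (L : Large Q (th a0)) (w : L.V) (d : V) : Prop := ∀ x : Q, L.pr x = w → Tr th (x : K) d

theorem R_of (h : Sit th O K0) (L : Large Q (th a0)) {x : Q} {d : V} (hx : Tr th (x : K) d) : R L (L.pr x) d := by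
  intro y hy v
  rcases L.pr_eq_pr.1 hy with h1 | h1
  · rw [h1]; exact hx v
  · rw [h1, mul_inv_rev, ← hx v]
    have h2 : (x : K) * th a0 * th v * ((th a0)⁻¹ * (x : K)⁻¹) = x * (th a0 * th v * (th a0)⁻¹) * (x : K)⁻¹ := by
      group
    rw [h2, h.comm a0 v, mul_inv_cancel_right]

theorem R_a (h : Sit th O K0) (L : Large Q (th a0)) (w : L.V) (d : V) (hw : R L w d) : dt d a0 = 0 := by
  obtain ⟨x, rfl⟩ := L.pr_surjective w
  have h1 := hw x rfl a0
  rw [L.comm_z x x.2, mul_inv_cancel_right] at h1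
  have h2 := h.inj h1
  rcases z2 (dt d a0) with h3 | h3
  · exact h3
  · rw [h3, one_smul, v_add_self] at h2
    exact absurd h2 a0_ne

theorem R_ex (h : Sit th O K0) (L : Large Q (th a0)) (w : L.V) (hw : ∀ v, T h L v w = w) : ∃ d, R L w d := by
  obtain ⟨x, rfl⟩ := L.pr_surjective w
  have hx := fun v => (T_pr h L v x).1 (hw v)
  have hn : (x : K) ∈ normalizer (h.A : Set K) := h.mem_normalizer.2 fun v => by
    rcases hx v with h1 | h1
    · exact ⟨v, h1⟩
    · exact ⟨_, h1⟩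
  obtain ⟨g, hg⟩ := h.exists_equiv_of_mem hn
  have h1 : ∀ v, g v = v ∨ g v = v + a0 := fun v => by
    rcases hx v with h1 | h1
    · left; exact h.inj ((hg v).symm.trans h1)
    · right; exact h.inj ((hg v).symm.trans h1)
  have h2 : ∀ v, g v = v + (g v + v) 0 • a0 := by
    intro v
    rcases h1 v with h3 | h3
    · rw [h3, v_add_self]; simp
    · have h4 : v + a0 + v = a0 := by rw [add_comm v a0, add_add_self]
      rw [h3, h4]; simp [a0]
  have hf : ∀ u v, (g (u + v) + (u + v)) 0 = (g u + u) 0 + (g v + v) 0 := by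
    intro u v
    rw [map_add]
    simp only [Pi.add_apply]
    ring
  have hs : ∀ (c : ZMod 2) (u : V), (g (c • u) + c • u) 0 = c * (g u + u) 0 := by
    intro c u
    rcases z2 c with rfl | rfl
    · rw [zero_smul, map_zero, zero_mul]; rfl
    · rw [one_smul, one_mul]
  refine ⟨fun i => (g (e i) + e i) 0, R_of h L fun v => ?_⟩
  rw [hg, h2 v]
  congr 3
  have h3 : (g v + v) 0 = (g (v 0 • e 0 + v 1 • e 1 + v 2 • e 2 + v 3 • e 3) +
      (v 0 • e 0 + v 1 • e 1 + v 2 • e 2 + v 3 • e 3)) 0 := by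
    rw [show e 0 = a0 from rfl, ← v_eq v]
  rw [h3, hf, hf, hf, hs, hs, hs, hs, dt]
  ring

theorem R_add (h : Sit th O K0) (L : Large Q (th a0)) (w w' : L.V) (d d' : V) (hw : R L w d) (hw' : R L w' d') :
    R L (w + w') (d + d') := by
  have ha := R_a h L w d hw
  obtain ⟨x, rfl⟩ := L.pr_surjective w
  obtain ⟨y, rfl⟩ := L.pr_surjective w'
  rw [← L.pr_mul]
  refine R_of h L fun v => ?_
  have h1 := hw' y rfl v
  have h2 := hw x rfl (v + dt d' v • a0)
  have h3 : ((x * y : Q) : K) * th v * ((x * y : Q) : K)⁻¹ = (x : K) * ((y : K) * th v * (y : K)⁻¹) * (x : K)⁻¹ := by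
    rw [Subgroup.coe_mul]; group
  rw [h3, h1, h2, dt_add, dt_smul, ha, mul_zero, add_zero, dt_add_left, add_smul, add_assoc]
  congr 2
  exact add_comm _ _

theorem R_uniq (h : Sit th O K0) (L : Large Q (th a0)) (d : V) (hd : R L 0 d) : d = 0 := by
  refine eq_zero_of_dt fun c => ?_
  rw [dt_comm]
  have h1 := hd 1 L.pr_one c
  rw [Subgroup.coe_one, one_mul, inv_one, mul_one] at h1
  have h2 := h.inj h1
  rcases z2 (dt d c) with h3 | h3
  · exact h3
  · rw [h3, one_smul] at h2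
    exact absurd (left_eq_add.1 h2) a0_ne

theorem comm_of_conj {x y : K} (h : x * y * x⁻¹ = y) : x * y = y * x := by
  rwa [mul_inv_eq_iff_eq_mul] at h

theorem R_zero (h : Sit th O K0) (L : Large Q (th a0)) (hX : ∀ v, th v ∈ Q ↔ v = 0 ∨ v = a0) (w : L.V)
    (hw : R L w 0) : w = 0 := by
  obtain ⟨x, rfl⟩ := L.pr_surjective w
  obtain ⟨v, hv⟩ := mem_of_comm h L x.2 fun v => comm_of_conj (by
    rw [hw x rfl v, dt_zero_left, zero_smul, add_zero])
  have h2 : th v ∈ Q := by rw [hv]; exact x.2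
  rw [L.pr_eq_zero, ← hv]
  rcases (hX v).1 h2 with h3 | h3
  · left; rw [h3, h.zero]
  · right; rw [h3]

/-- transitivity on the fixed vectors -/
theorem R_trans (h : Sit th O K0) (L : Large Q (th a0)) {w : L.V} {d d' : V} (hw : R L w d) (hd : d ≠ 0)
    (hd' : d' ≠ 0) (ha' : dt d' a0 = 0) : ∃ w', R L w' d' ∧ L.q w' = L.q w := by
  by_cases hdd : d = d'
  · exact ⟨w, hdd ▸ hw, rfl⟩
  have ha := R_a h L w d hw
  obtain ⟨b, h1, h2⟩ := exists_dt_pair hd hd' hdd 1 1
  rw [dt_comm] at h1 h2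
  have hcb : dt (d + d') b = 0 := by rw [dt_add_left, h1, h2]; decide
  obtain ⟨k, -, hk⟩ := h.exists_tv (d + d') b hcb
  have hk' : ∀ v, k * th v * k⁻¹ = th (tv (d + d') b hcb v) := hk
  have hg : ∀ v, tv (d + d') b hcb (tv (d + d') b hcb v) = v := (tv (d + d') b hcb).left_inv
  have hga : tv (d + d') b hcb a0 = a0 := tv_of_zero _ (by rw [dt_add_left, ha, ha', add_zero])
  have hka : k * th a0 = th a0 * k := comm_of_conj (by rw [hk', hga])
  obtain ⟨x, rfl⟩ := L.pr_surjective w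
  let kc : centralizer ({th a0} : Set K) := ⟨k, mem_centralizer_singleton_iff.2 hka⟩
  refine ⟨L.act kc (L.pr x), ?_, L.q_act _ _⟩
  rw [L.act_pr]
  refine R_of h L fun v => ?_
  rw [L.conjQ_coe]
  change k * x * k⁻¹ * th v * (k * x * k⁻¹)⁻¹ = _
  have h3 : k⁻¹ * th v * k = th (tv (d + d') b hcb v) := by
    have h4 := hk' (tv (d + d') b hcb v)
    rw [hg] at h4
    rw [← h4]; group
  have h4 : k * x * k⁻¹ * th v * (k * x * k⁻¹)⁻¹ = k * (x * (k⁻¹ * th v * k) * (x : K)⁻¹) * k⁻¹ := by group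
  rw [h4, h3, hw x rfl, hk', map_add, hg, dt_tv, h1, one_smul, self_add_add]
  congr 2
  rcases z2 (dt d' v) with h5 | h5
  · rw [h5, zero_smul, map_zero]
  · rw [h5, one_smul, hga]

theorem R_q (h : Sit th O K0) (L : Large Q (th a0)) (hX : ∀ v, th v ∈ Q ↔ v = 0 ∨ v = a0) {w : L.V} {d : V}
    (hw : R L w d) : L.q w = 0 := by
  by_cases hd : d = 0
  · rw [hd] at hw
    rw [R_zero h L hX w hw, L.q_zero]
  have key : ∀ w' d', d' ≠ 0 → R L w' d' → L.q w' = L.q w := by
    intro w' d' hd' hw'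
    obtain ⟨w2, h1, h2⟩ := R_trans h L hw hd hd' (R_a h L w' d' hw')
    rw [← h2]
    congr 1
    have h3 := R_add h L w' w2 d' d' hw' h1
    rw [v_add_self] at h3
    have h4 := R_zero h L hX _ h3
    rw [add_eq_zero_iff_eq_neg, L.neg_eq] at h4
    exact h4
  have hne : ∀ i, e i ≠ 0 := by
    intro i hi
    have := congrFun hi i
    simp [e] at this
  have hea : ∀ i : Fin 4, i ≠ 0 → dt (e i) a0 = 0 := by
    intro i hi
    rw [dt_a0]
    simp [e, hi]
  obtain ⟨w1, r1, -⟩ := R_trans h L hw hd (hne 1) (hea 1 (by decide))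
  obtain ⟨w2, r2, -⟩ := R_trans h L hw hd (hne 2) (hea 2 (by decide))
  obtain ⟨w3, r3, -⟩ := R_trans h L hw hd (hne 3) (hea 3 (by decide))
  have r12 := R_add h L _ _ _ _ r1 r2
  have r13 := R_add h L _ _ _ _ r1 r3
  have r23 := R_add h L _ _ _ _ r2 r3
  have r123 := R_add h L _ _ _ _ r12 r3
  have q1 := key _ _ (hne 1) r1
  have q2 := key _ _ (hne 2) r2
  have q3 := key _ _ (hne 3) r3
  have q12 := key _ _ (by decide) r12
  have q13 := key _ _ (by decide) r13
  have q23 := key _ _ (by decide) r23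
  have q123 := key _ _ (by decide) r123
  rw [L.q_add'] at q12 q13 q23 q123
  rw [L.q_add', map_add, LinearMap.add_apply] at q123
  rw [q1, q2] at q12 q123
  rw [q1, q3] at q13
  rw [q2, q3] at q23
  rw [q3] at q123
  clear key q1 q2 q3
  generalize L.b w1 w2 = b12 at *
  generalize L.b w1 w3 = b13 at *
  generalize L.b w2 w3 = b23 at *
  generalize L.q w = c at *
  revert q12 q13 q23 q123
  revert b12 b13 b23 c
  decide

theorem R_alt (h : Sit th O K0) (L : Large Q (th a0)) (hX : ∀ v, th v ∈ Q ↔ v = 0 ∨ v = a0) (x : L.V) (v d : V)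
    (hw : R L (T h L v x + x) d) : dt d v = 0 := by
  have hq := R_q h L hX hw
  obtain ⟨x, rfl⟩ := L.pr_surjective x
  rw [T_apply, L.act_pr] at hq hw
  have h1 : L.pr (L.conjQ ⟨th v, mem_cen h v⟩ x) + L.pr x = L.pr (L.conjQ ⟨th v, mem_cen h v⟩ x * x⁻¹) := by
    rw [L.pr_mul, L.pr_inv, L.neg_eq]
  rw [h1] at hq hw
  have h2 : ((L.conjQ ⟨th v, mem_cen h v⟩ x * x⁻¹ : Q) : K) = th v * (x * th v * (x : K)⁻¹) := by
    change th v * (x : K) * (th v)⁻¹ * (x : K)⁻¹ = _
    rw [h.inv v]; group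
  have h3 := L.q_eq_zero.1 hq
  have h4 := hw _ rfl v
  rw [h2] at h3 h4
  have h5 : (x * th v * (x : K)⁻¹) * (x * th v * (x : K)⁻¹) = 1 := by
    have h6 : (x * th v * (x : K)⁻¹) * (x * th v * (x : K)⁻¹) = x * (th v * th v) * (x : K)⁻¹ := by group
    rw [h6, h.sq, mul_one, mul_inv_cancel]
  generalize (x * th v * (x : K)⁻¹) = y at h3 h4 h5
  -- `th v * y = y * th v`
  have h6 : th v * y = y * th v := by
    have h7 : th v * y = (th v * y)⁻¹ := eq_inv_of_mul_eq_one_left h3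
    rw [h7, mul_inv_rev, h.inv, inv_eq_of_mul_eq_one_left h5]
  have h7 : th v * y * th v * (th v * y)⁻¹ = th v := by
    rw [mul_inv_eq_iff_eq_mul, mul_assoc, ← h6]
  rw [h7] at h4
  have h8 := h.inj h4
  rcases z2 (dt d v) with h9 | h9
  · exact h9
  · rw [h9, one_smul] at h8
    exact absurd (left_eq_add.1 h8) a0_ne

variable [Finite K]

/-- the case `A ∩ Q = ⟨z⟩` -/
theorem case_mid (h : Sit th O K0) (L : Large Q (th a0)) (hX : ∀ v, th v ∈ Q ↔ v = 0 ∨ v = a0) :
    Nat.card L.V ≤ 2 ^ 6 := by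
  have h1 : Nat.card L.V ≤ 2 ^ 7 :=
    card_le (T h L) (R L) (T_add h L) (T_zero h L) (T_a h L) (R_ex h L) (R_add h L) (R_zero h L hX) (R_uniq h L)
      (R_a h L) (R_alt h L hX)
  obtain ⟨m, hm⟩ := Cfsg.Agent.LargeExtra.Dickson.even_finrank L
  have := Cfsg.Agent.LargeExtra.Dickson.finiteDim L
  have h2 : Nat.card L.V = 2 ^ (m + m) := by
    rw [Module.natCard_eq_pow_finrank (K := ZMod 2) (V := L.V), Nat.card_zmod, hm]
  rw [h2] at h1 ⊢
  have h3 : m + m ≤ 7 := (Nat.pow_le_pow_iff_right (by norm_num : 1 < 2)).1 h1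
  exact Nat.pow_le_pow_right (by norm_num) (by omega)

omit [Finite K] in
theorem comm_add (h : Sit th O K0) {w : K} {u v : V} (hu : w * th u = th u * w) (hv : w * th v = th v * w) :
    w * th (u + v) = th (u + v) * w := by
  rw [h.add, ← mul_assoc, hu, mul_assoc, hv, mul_assoc]

/-- the case `A ≤ Q` -/
theorem case_top (h : Sit th O K0) (L : Large Q (th a0)) (hX : ∀ v, th v ∈ Q) : Nat.card L.V ≤ 2 ^ 6 := by
  let p : V → L.V := fun v => L.pr ⟨th v, hX v⟩
  let f : L.V → (ZMod 2 × ZMod 2 × ZMod 2) := fun w => (L.b w (p (e 1)), L.b w (p (e 2)), L.b w (p (e 3)))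
  let S : Set L.V := Set.range fun c : ZMod 2 × ZMod 2 × ZMod 2 => p (c.1 • e 1 + c.2.1 • e 2 + c.2.2 • e 3)
  have h1 : (Set.univ : Set L.V).ncard ≤ Nat.card (ZMod 2 × ZMod 2 × ZMod 2) * S.ncard := by
    refine ncard_le_mul f _ _ ?_
    intro x _ y _ hxy
    have e1 : L.b x (p (e 1)) = L.b y (p (e 1)) := congrArg (fun t => t.1) hxy
    have e2 : L.b x (p (e 2)) = L.b y (p (e 2)) := congrArg (fun t => t.2.1) hxy
    have e3 : L.b x (p (e 3)) = L.b y (p (e 3)) := congrArg (fun t => t.2.2) hxy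
    obtain ⟨w, hw⟩ := L.pr_surjective (x + y)
    have h2 : ∀ i, L.b x (p (e i)) = L.b y (p (e i)) → (w : K) * th (e i) = th (e i) * w := by
      intro i hi
      have h3 : L.b (L.pr w) (p (e i)) = 0 := by
        rw [hw, map_add, LinearMap.add_apply, hi]
        exact z2_add_self _
      exact (L.b_pr _ _).1 h3
    have hs : ∀ (c : ZMod 2) (v : V), (w : K) * th v = th v * w → (w : K) * th (c • v) = th (c • v) * w := by
      intro c v hv
      rcases z2 c with rfl | rfl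
      · rw [zero_smul, h.zero, mul_one, one_mul]
      · rw [one_smul]; exact hv
    have h3 : ∀ v, (w : K) * th v = th v * w := by
      intro v
      rw [v_eq v]
      exact comm_add h (comm_add h (comm_add h (hs _ _ (L.comm_z w w.2)) (hs _ _ (h2 1 e1))) (hs _ _ (h2 2 e2)))
        (hs _ _ (h2 3 e3))
    obtain ⟨v, hv⟩ := mem_of_comm h L w.2 h3
    refine ⟨(v 1, v 2, v 3), ?_⟩
    rw [← hw]
    change p (v 1 • e 1 + v 2 • e 2 + v 3 • e 3) = _
    have h5 : v = (v 1 • e 1 + v 2 • e 2 + v 3 • e 3) + v 0 • a0 := by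
      conv_lhs => rw [v_eq v]
      abel
    generalize v 1 • e 1 + v 2 • e 2 + v 3 • e 3 = u at h5
    symm
    change L.pr w = L.pr ⟨th u, hX u⟩
    rw [L.pr_eq_pr]
    rcases z2 (v 0) with h6 | h6
    · left
      rw [h6, zero_smul, add_zero] at h5
      rw [← hv, h5]
    · right
      rw [h6, one_smul] at h5
      rw [← hv, h5, h.add]
  have h2 : S.ncard ≤ 8 := by
    have : S = (fun c : ZMod 2 × ZMod 2 × ZMod 2 => p (c.1 • e 1 + c.2.1 • e 2 + c.2.2 • e 3)) '' Set.univ :=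
      Set.image_univ.symm
    rw [this]
    refine (Set.ncard_image_le (Set.toFinite _)).trans ?_
    rw [Set.ncard_univ, Nat.card_prod, Nat.card_prod, Nat.card_zmod]
  rw [Set.ncard_univ, Nat.card_prod, Nat.card_prod, Nat.card_zmod] at h1
  omega

theorem large_card_a0 (h : Sit th O K0) (L : Large Q (th a0)) : Nat.card Q ≤ 2 ^ 7 := by
  have hc := L.card_eq
  rcases h.inter_cases a0_ne Q (fun k _ hk x hx => L.conj_mem k hk x hx) with h1 | h1 | h1
  · exact absurd ((h1 a0).1 L.z_mem) a0_ne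
  · have := case_mid h L h1
    omega
  · have := case_top h L h1
    omega

end

/-- **Large extraspecial subgroups in a group with `Sit`.** -/
theorem large_card {K : Type*} [Group K] [Finite K] {th : V → K} {O K0 : Subgroup K} (h : Sit th O K0) {a : V}
    (ha : a ≠ 0) {Q : Subgroup K} (hQ : Large Q (th a)) : Nat.card Q ≤ 2 ^ 7 := by
  obtain ⟨k, -, hk⟩ := h.exists_conj ha a0_ne
  have hL := hQ.conj k
  have hc : Nat.card (Q.map (MulAut.conj k).toMonoidHom) = Nat.card Q :=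
    (Nat.card_congr (Q.equivMapOfInjective _ (MulAut.conj k).injective).toEquiv).symm
  generalize hQ' : Q.map (MulAut.conj k).toMonoidHom = Q' at hL hc
  rw [hk] at hL
  rw [← hc]
  exact large_card_a0 h hL

end Cfsg.Agent.H462.LinFour
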